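import Mathlib
import Cfsg.Prelude.Def_RootSubgroups

/-!
# Odd transpositions: basic parity lemmas

`D` is a set of involutions, closed under conjugation, in which two members commute or have a
product of odd order.
-/

namespace Cfsg.Agent.OddTranspDiam

universe u

variable {G : Type u} [Group G]

/-- The hypotheses used throughout. -/
structure OT (D : Set G) : Prop where
  sq : ∀ a ∈ D, a * a = 1
  ne : ∀ a ∈ D, a ≠ 1
  conj : ∀ a ∈ D, ∀ g : G, g * a * g⁻¹ ∈ D
  pair : ∀ a ∈ D, ∀ b ∈ D, ¬ Commute a b → Odd (orderOf (a * b))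

theorem OT.of {D : Set G} (hD : Cfsg.IsOddTranspositionSet D) : OT D where
  sq := fun a ha => by rw [← pow_two, ← hD.1.orderOf_eq a ha, pow_orderOf_eq_one]
  ne := fun a ha h => by simpa [h] using hD.1.orderOf_eq a ha
  conj := hD.1.conj_mem
  pair := fun a ha b hb h => by
    rcases hD.1.pair a ha b hb with h' | h' | ⟨h', -⟩
    · exact absurd h' h
    · exact h'
    · exact absurd h' (hD.2 a ha b hb)

theorem commute_of_sq {y p : G} (ho : Odd (orderOf p)) (h : Commute y (p * p)) : Commute y p := by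
  obtain ⟨k, hk⟩ := ho
  have hp : p = (p * p) ^ (k + 1) := by
    rw [← pow_two, ← pow_mul, show 2 * (k + 1) = orderOf p + 1 by omega, pow_succ,
      pow_orderOf_eq_one, one_mul]
  rw [hp]
  exact h.pow_right _

variable {D : Set G} (hD : OT D)
include hD

theorem OT.inv {a : G} (ha : a ∈ D) : a⁻¹ = a := inv_eq_of_mul_eq_one_right (hD.sq a ha)

theorem OT.mul_self_mul {a : G} (ha : a ∈ D) (g : G) : a * (a * g) = g := by
  rw [← mul_assoc, hD.sq a ha, one_mul]

theorem OT.pair_sq {p q : G} (hp : p ∈ D) (hq : q ∈ D) (hpq : Commute p q) :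
    p * q * (p * q) = 1 := by
  rw [hpq.symm.mul_mul_mul_comm, hD.sq p hp, hD.sq q hq, one_mul]

/-- The map `w ↦ w y w` is injective on the members not commuting with `y`. -/
theorem OT.inj {y w w' : G} (hy : y ∈ D) (hw : w ∈ D) (hw' : w' ∈ D) (hn : ¬ Commute y w)
    (h : Commute y (w * w')) : w = w' := by
  have hyw' : ¬ Commute y w' := fun h' => hn (by
    have := h.mul_right h'.inv_right
    rwa [mul_inv_cancel_right] at this)
  suffices hg : w * w' = 1 by rw [← hD.inv hw, inv_eq_of_mul_eq_one_right hg]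
  by_cases hc : Commute w w'
  · set g := w * w' with hg
    have hgg : g * g = 1 := hD.pair_sq hw hw' hc
    have hwg : Commute w g := (Commute.refl w).mul_right hc
    have hpg : Commute (y * w) g := h.mul_left hwg
    have he : y * w' = y * w * g := by rw [hg, mul_assoc, hD.mul_self_mul hw]
    obtain ⟨k, hk⟩ := hD.pair y hy w hw hn
    obtain ⟨l, hl⟩ := hD.pair y hy w' hw' hyw'
    have hpow : (y * w') ^ orderOf (y * w) = g := by
      rw [he, hpg.mul_pow, pow_orderOf_eq_one, one_mul, hk, pow_succ, pow_mul, pow_two, hgg,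
        one_pow, one_mul]
    have h1 : g ^ orderOf (y * w') = 1 := by
      rw [← hpow, ← pow_mul, mul_comm, pow_mul, pow_orderOf_eq_one, one_pow]
    rwa [hl, pow_succ, pow_mul, pow_two, hgg, one_pow, one_mul] at h1
  · set g := w * w' with hg
    have hgw : w * g = g⁻¹ * w := by
      rw [hg, mul_inv_rev, hD.inv hw, hD.inv hw', hD.mul_self_mul hw, mul_assoc, hD.sq w hw,
        mul_one]
    have hs : SemiconjBy (y * w) g g⁻¹ :=
      SemiconjBy.mul_left (h.inv_right : SemiconjBy y g⁻¹ g⁻¹) hgw
    have hs2 : Commute g (y * w * (y * w)) := by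
      have := hs.inv_right
      rw [inv_inv] at this
      exact (this.mul_left hs).symm
    have hcp : Commute g (y * w) := commute_of_sq (hD.pair y hy w hw hn) hs2
    have hgi : g⁻¹ = g := by
      have h2 := hs.eq
      rw [← hcp.eq] at h2
      exact (mul_right_cancel h2).symm
    have hgg : g * g = 1 := by rw [← eq_inv_iff_mul_eq_one, hgi]
    obtain ⟨k, hk⟩ := hD.pair w hw w' hw' hc
    have h1 := pow_orderOf_eq_one (w * w')
    rw [hk, ← hg, pow_succ, pow_mul, pow_two, hgg, one_pow, one_mul] at h1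
    exact h1

/-- A member commuting with one point of a line commutes with the others. -/
theorem OT.line {y b b' : G} (hy : y ∈ D) (hb : b ∈ D) (hb' : b' ∈ D) (hbb : Commute b b')
    (hl : b * b' ∈ D) (h : Commute y b) : Commute y b' := by
  by_contra hn
  refine hD.ne b hb ?_
  have he := hD.inj hy hb' hl hn (by
    rwa [← mul_assoc, ← hbb.eq, mul_assoc, hD.sq b' hb', mul_one])
  exact mul_right_cancel (he.symm.trans (one_mul b').symm)

/-- The dichotomy for a member and a commuting pair. -/
theorem OT.dich [Finite G] {y p q : G} (hy : y ∈ D) (hp : p ∈ D) (hq : q ∈ D)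
    (hpq : Commute p q) (hn : ¬ Commute y (p * q * y * (p * q)⁻¹)) :
    ∃ m : ℕ, Odd m ∧ (y * (p * q)) ^ m * (p * q) ∈ D ∧
      Commute ((y * (p * q)) ^ m * (p * q)) p ∧ Commute ((y * (p * q)) ^ m * (p * q)) q ∧
      ¬ Commute y ((y * (p * q)) ^ m * (p * q)) ∧ Commute y ((y * (p * q)) ^ m) := by
  have hvv : p * q * (p * q) = 1 := hD.pair_sq hp hq hpq
  have hvi : (p * q)⁻¹ = p * q := inv_eq_of_mul_eq_one_right hvv
  generalize hv : p * q = v at hn hvv hvi ⊢
  have hnv : ¬ Commute y v := fun h => hn (by rw [← h.eq, mul_inv_cancel_right])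
  set r := y * v with hr
  have hri : r⁻¹ = v * y := by rw [hr, mul_inv_rev, hvi, hD.inv hy]
  have hyr : SemiconjBy y r r⁻¹ := by
    show y * r = r⁻¹ * y
    rw [hri, hr, hD.mul_self_mul hy, mul_assoc, hD.sq y hy, mul_one]
  have hvr : SemiconjBy v r r⁻¹ := by
    show v * r = r⁻¹ * v
    rw [hri, hr, mul_assoc]
  have hm := hD.pair y hy _ (hD.conj y hy v) hn
  set m := orderOf (y * (v * y * v⁻¹)) with hmdef
  have hjj : r ^ m * r ^ m = 1 := by
    rw [← (Commute.refl r).mul_pow, show r * r = y * (v * y * v⁻¹) by rw [hvi, hr]; group, hmdef,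
      pow_orderOf_eq_one]
  have hji : r⁻¹ ^ m = r ^ m := by rw [inv_pow, inv_eq_of_mul_eq_one_right hjj]
  have hyj : Commute y (r ^ m) := show SemiconjBy y (r ^ m) (r ^ m) by
    simpa only [hji] using hyr.pow_right m
  have hvj : Commute v (r ^ m) := show SemiconjBy v (r ^ m) (r ^ m) by
    simpa only [hji] using hvr.pow_right m
  obtain ⟨k, hk⟩ := hm
  have hrv : r * v = y := by rw [hr, mul_assoc, hvv, mul_one]
  have hu : r ^ m * v = r ^ k * y * (r ^ k)⁻¹ := by
    rw [← inv_pow, mul_assoc, (hyr.inv_right.pow_right k).eq, inv_inv, ← mul_assoc, ← pow_add, hk,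
      pow_succ, mul_assoc, hrv, show k + k = 2 * k by omega]
  have huD : r ^ m * v ∈ D := hu ▸ hD.conj y hy _
  have huv : Commute (r ^ m * v) v := hvj.symm.mul_left (Commute.refl v)
  have hup : Commute (r ^ m * v) p := by
    by_contra h
    refine hnv ?_
    rw [← hv, hD.inj huD hp hq h (hv.symm ▸ huv), hD.sq q hq]
    exact Commute.one_right y
  have huq : Commute (r ^ m * v) q := by
    have h := hup.mul_right huv
    rwa [← hv, hD.mul_self_mul hp, hv] at h
  refine ⟨m, ⟨k, hk⟩, huD, hup, huq, fun h => hnv ?_, hyj⟩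
  have h2 := hyj.inv_right.mul_right h
  rwa [inv_mul_cancel_left] at h2

/-- On a line at most one point gives a commuting conjugate. -/
theorem OT.uniq {y p q q' : G} (hy : y ∈ D) (hq : q ∈ D) (hq' : q' ∈ D) (hpq : Commute p q)
    (hpq' : Commute p q') (hqq : Commute q q') (hl : q * q' ∈ D) (hn : ¬ Commute y q)
    (h1 : Commute y (p * q * y * (p * q)⁻¹)) :
    ¬ Commute y (p * q' * y * (p * q')⁻¹) := by
  intro h2
  set r := q * q' with hr
  have hpr : Commute p r := hpq.mul_right hpq'
  have hqr : Commute q r := (Commute.refl q).mul_right hqq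
  have hqr' : r * q = q' := by rw [← hqr.eq, hr, hD.mul_self_mul hq]
  have hyr : ¬ Commute y r := fun h =>
    hn (hD.line hy hl hq hqr.symm (hqr'.symm ▸ hq') h)
  set E := p * q * y * (p * q)⁻¹ with hE
  have hErn : ¬ Commute E r := fun h => hyr (by
    have hcomm : p * q * r * (p * q)⁻¹ = r := by
      rw [(hpr.mul_left hqr).eq, mul_inv_cancel_right]
    rw [hE, ← hcomm] at h
    exact (Commute.conj_iff (p * q)).1 h)
  have he : p * q' * y * (p * q')⁻¹ = r * E * r := by
    rw [hE, show p * q' = r * (p * q) by rw [← mul_assoc, ← hpr.eq, mul_assoc, hqr'],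
      mul_inv_rev, hD.inv hl]
    group
  rw [he] at h2
  have h3 : Commute y (E * r * (E * r)) := by
    have := h1.mul_right h2
    simpa [mul_assoc] using this
  have h4 := commute_of_sq (hD.pair E (hD.conj y hy _) r hl hErn) h3
  have h5 := h1.inv_right.mul_right h4
  rw [inv_mul_cancel_left] at h5
  exact hyr h5

/-- A member commuting with `b` and with `z x b` commutes with `x`. -/
theorem OT.both {y x b z : G} (hy : y ∈ D) (hx : x ∈ D) (hb : b ∈ D) (hz : z ∈ D) (hzx : z ≠ x)
    (hyb : Commute y b) (hyc : Commute y (z * x * b)) : Commute y x := by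
  have hv : Commute y (z * x) := by
    have := hyc.mul_right hyb
    rwa [mul_assoc, hD.sq b hb, mul_one] at this
  by_cases h : Commute y z
  · have h2 := h.inv_right.mul_right hv
    rwa [inv_mul_cancel_left] at h2
  · exact absurd (hD.inj hy hz hx h hv) hzx

end Cfsg.Agent.OddTranspDiam
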