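import Cfsg.Agent.OddTranspDiam.Basic

/-!
# The commuting graph of odd transpositions with a line has diameter two

There is no shortest path `d, a, b, x` of length three.
-/

namespace Cfsg.Agent.OddTranspDiam

universe u

variable {G : Type u} [Group G] [Finite G] {D : Set G}

/-- The normalised configuration is impossible. -/
theorem core (hD : OT D) {d a b x a₁ : G} (hd : d ∈ D) (ha : a ∈ D) (hb : b ∈ D) (hx : x ∈ D)
    (ha₁ : a₁ ∈ D) (hda : Commute d a) (hab : Commute a b) (hbx : Commute b x)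
    (hbad : ∀ g ∈ D, Commute g d → ¬ Commute g x)
    (haa₁ : Commute a a₁) (hl₁ : a * a₁ ∈ D)
    (hnb : ¬ Commute d (x * b * d * (x * b)⁻¹)) (hna : ¬ Commute x (a * d * x * (a * d)⁻¹)) :
    False := by
  have hdb : ¬ Commute d b := fun h => hbad b hb h.symm hbx
  have hax : ¬ Commute a x := fun h => hbad a ha hda.symm h
  have hdx : ¬ Commute d x := fun h => hbad x hx h.symm (Commute.refl x)
  -- the element `c = z x b` fixing `d`
  obtain ⟨m, -, hz, hzx', hzb', hdz, hdc⟩ := hD.dich hd hx hb hbx.symm hnb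
  set c := (d * (x * b)) ^ m with hc
  set z := c * (x * b) with hzdef
  have hcz : c = z * x * b := by
    rw [hzdef, mul_assoc (c * (x * b)), mul_assoc, hD.pair_sq hx hb hbx.symm, mul_one]
  have hcx : Commute c x := by
    rw [hcz]; exact (hzx'.mul_left (Commute.refl x)).mul_left hbx
  have hcb : Commute c b := by
    rw [hcz]; exact (hzb'.mul_left hbx.symm).mul_left (Commute.refl b)
  have hzne : z ≠ x := fun h => hdb (by
    rwa [hcz, h, hD.sq x hx, one_mul] at hdc)
  have hcc : c * c = 1 := by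
    rw [hcz, (hzb'.symm.mul_right hbx).mul_mul_mul_comm, hzx'.symm.mul_mul_mul_comm,
      hD.sq z hz, hD.sq x hx, hD.sq b hb, one_mul, one_mul]
  have hci : c⁻¹ = c := inv_eq_of_mul_eq_one_right hcc
  -- the element `t = z₁ d a` fixing `x`
  obtain ⟨n, -, hz₁, hz₁a, hz₁d, hxz₁, hxt⟩ := hD.dich hx ha hd hda.symm hna
  set t := (x * (a * d)) ^ n with ht
  set z₁ := t * (a * d) with hz₁def
  have htz : t = z₁ * d * a := by
    rw [mul_assoc, hda.eq, hz₁def, mul_assoc t, hD.pair_sq ha hd hda.symm, mul_one]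
  have hta : Commute t a := by
    rw [htz]; exact (hz₁a.mul_left hda).mul_left (Commute.refl a)
  have htd : Commute t d := by
    rw [htz]; exact (hz₁d.mul_left (Commute.refl d)).mul_left hda.symm
  have hz₁ne : z₁ ≠ d := fun h => hax (by
    rw [htz, h, hD.sq d hd, one_mul] at hxt
    exact hxt.symm)
  -- the conjugate `e` of `a`
  set e := c * a * c⁻¹ with hedef
  have heD : e ∈ D := hD.conj a ha c
  have hed : Commute e d := by
    have h := (Commute.conj_iff c).2 hda.symm
    rwa [show c * d * c⁻¹ = d by rw [← hdc.eq, mul_inv_cancel_right]] at h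
  have heb : Commute e b := by
    have h := (Commute.conj_iff c).2 hab
    rwa [show c * b * c⁻¹ = b by rw [hcb.eq, mul_inv_cancel_right]] at h
  have hex : ¬ Commute e x := fun h => hbad e heD hed h
  have he' : e = z * x * a * (z * x)⁻¹ := by
    rw [hedef, hcz, mul_assoc (z * x) b a, ← hab.eq, mul_inv_rev (z * x) b]
    group
  have haz : ¬ Commute a z := by
    intro h
    refine hax (?_ : Commute a x)
    have hexa : e = x * a * x⁻¹ := by
      rw [he', hzx'.eq, mul_assoc x z a, ← h.eq]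
      group
    have h1 : Commute (x * d * x⁻¹) a := by
      have h2 := (Commute.conj_iff x).2 hed
      rwa [hexa, show x * (x * a * x⁻¹) * x⁻¹ = a by
        rw [hD.inv hx, mul_assoc x a x, hD.mul_self_mul hx, mul_assoc, hD.sq x hx, mul_one],
        Commute.symm_iff] at h2
    have h3 : Commute a (d * x * (d * x)) := by
      have h4 := hda.symm.mul_right h1.symm
      rw [hD.inv hx] at h4
      simpa [mul_assoc] using h4
    have h5 := hda.symm.inv_right.mul_right (commute_of_sq (hD.pair d hd x hx hdx) h3)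
    rwa [inv_mul_cancel_left] at h5
  have hea : Commute a e := by
    by_contra h
    rw [he'] at h
    obtain ⟨k, hk, hu, huz, hux, -, -⟩ := hD.dich ha hz hx hzx' h
    refine hbad _ hu ?_ hux
    have hcomm : Commute (a * (z * x)) b := hab.mul_left (hzb'.mul_left hbx.symm)
    have hbk : b ^ k = b := by
      obtain ⟨l, rfl⟩ := hk
      rw [pow_succ, pow_mul, pow_two, hD.sq b hb, one_pow, one_mul]
    have h1 : Commute d ((a * (z * x)) ^ k * b) := by
      have h2 : Commute d ((a * c) ^ k) := (hda.mul_right hdc).pow_right k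
      rwa [hcz, ← mul_assoc a (z * x) b, hcomm.mul_pow, hbk] at h2
    have h3 : (a * (z * x)) ^ k * b * c = (a * (z * x)) ^ k * (z * x) := by
      rw [hcz, mul_assoc ((a * (z * x)) ^ k), ← mul_assoc b (z * x),
        ← (hzb'.mul_left hbx.symm).eq, mul_assoc (z * x), hD.sq b hb, mul_one]
    exact (h3 ▸ h1.mul_right hdc).symm
  have hne : e ≠ a := by
    intro h
    refine hax (hD.both ha hx hb hz hzne hab ?_)
    rw [← hcz]
    exact (mul_inv_eq_iff_eq_mul.1 h).symm
  -- elements fixing `x`, `a`, `e` fix `z`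
  have fixz : ∀ g : G, Commute g x → Commute g a → Commute g e → Commute g z := by
    intro g hgx hga hge
    have hfix : ∀ w, Commute g w → g * w * g⁻¹ = w := fun w hw => by
      rw [hw.eq, mul_inv_cancel_right]
    have hzg : g * z * g⁻¹ ∈ D := hD.conj z hz g
    have hga' : Commute a (g * b * g⁻¹) := by
      have h := (Commute.conj_iff g).2 hab
      rwa [hfix a hga] at h
    have hgx' : Commute (g * z * g⁻¹) x := by
      have h := (Commute.conj_iff g).2 hzx'
      rwa [hfix x hgx] at h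
    have h1 : g * c * g⁻¹ * a * (g * c * g⁻¹)⁻¹ = e := by
      rw [mul_inv_rev, mul_inv_rev, inv_inv]
      calc g * c * g⁻¹ * a * (g * (c⁻¹ * g⁻¹)) = g * c * (g⁻¹ * a * g) * c⁻¹ * g⁻¹ := by group
        _ = g * e * g⁻¹ := by rw [hga.inv_left.eq, inv_mul_cancel_right, hedef]; group
        _ = e := hfix e hge
    have h2 : g * c * g⁻¹ = g * z * g⁻¹ * x * (g * b * g⁻¹) := by
      conv_rhs => rw [← hfix x hgx]
      rw [hcz]; group
    have h3 : g * z * g⁻¹ * x * a * (g * z * g⁻¹ * x)⁻¹ = z * x * a * (z * x)⁻¹ := by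
      rw [← he']
      refine Eq.trans ?_ h1
      rw [h2, mul_assoc (g * z * g⁻¹ * x) (g * b * g⁻¹) a, ← hga'.eq,
        mul_inv_rev (g * z * g⁻¹ * x) (g * b * g⁻¹)]
      group
    have h4 : Commute a (z * (g * z * g⁻¹)) := by
      have h5 : (z * x)⁻¹ * (g * z * g⁻¹ * x) * a = a * ((z * x)⁻¹ * (g * z * g⁻¹ * x)) := by
        calc (z * x)⁻¹ * (g * z * g⁻¹ * x) * a
            = (z * x)⁻¹ * (g * z * g⁻¹ * x * a * (g * z * g⁻¹ * x)⁻¹) * (g * z * g⁻¹ * x) := by
              group
          _ = (z * x)⁻¹ * (z * x * a * (z * x)⁻¹) * (g * z * g⁻¹ * x) := by rw [h3]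
          _ = a * ((z * x)⁻¹ * (g * z * g⁻¹ * x)) := by group
      have h7 : (z * x)⁻¹ * (g * z * g⁻¹ * x) = z * (g * z * g⁻¹) := by
        rw [mul_inv_rev, hD.inv hx, hD.inv hz, mul_assoc x z, ← mul_assoc z (g * z * g⁻¹) x,
          ← mul_assoc x, ← (hzx'.mul_left hgx').eq, mul_assoc, hD.sq x hx, mul_one]
      rw [h7] at h5
      exact h5.symm
    exact mul_inv_eq_iff_eq_mul.1 (hD.inj ha hz hzg haz h4).symm
  by_cases hez : Commute e z₁
  · -- `t` fixes `e`
    have hte : Commute t e := by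
      rw [htz]; exact (hez.symm.mul_left hed.symm).mul_left hea
    have htzz : Commute t z := fixz t hxt.symm hta hte
    have hfix : ∀ w, Commute t w → t * w * t⁻¹ = w := fun w hw => by
      rw [hw.eq, mul_inv_cancel_right]
    have hdct : Commute d (t * c * t⁻¹) := by
      have h := (Commute.conj_iff t).2 hdc
      rwa [hfix d htd] at h
    have h1 : t * c * t⁻¹ = z * x * (t * b * t⁻¹) := by
      conv_rhs => rw [← hfix z htzz, ← hfix x hxt.symm]
      rw [hcz]; group
    have h2 : c * (t * c * t⁻¹) = b * (t * b * t⁻¹) := by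
      rw [h1, hcz, mul_assoc (z * x) b, ← mul_assoc b (z * x),
        ← (hzb'.mul_left hbx.symm).eq, mul_assoc (z * x) b, ← mul_assoc (z * x) (z * x),
        hzx'.symm.mul_mul_mul_comm, hD.sq z hz, hD.sq x hx, one_mul, one_mul]
    have h3 : Commute d (b * (t * b * t⁻¹)) := h2 ▸ hdc.mul_right hdct
    have h4 : Commute t b :=
      mul_inv_eq_iff_eq_mul.1 (hD.inj hd hb (hD.conj b hb t) hdb h3).symm
    refine hdb (hD.both hb hd ha hz₁ hz₁ne hab.symm ?_).symm
    rw [← htz]
    exact h4.symm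
  · -- choose the point `a'` on the line of `a`
    obtain ⟨a', ha', haa', hl', hn'⟩ : ∃ a' ∈ D, Commute a a' ∧ a * a' ∈ D ∧
        ¬ Commute x (e * a' * x * (e * a')⁻¹) := by
      by_cases h : Commute x (e * a₁ * x * (e * a₁)⁻¹)
      · have hc1 : Commute a (a * a₁) := (Commute.refl a).mul_right haa₁
        have he1 : Commute e a₁ := hD.line heD ha ha₁ haa₁ hl₁ hea.symm
        have hx1 : ¬ Commute x a₁ := fun h' => hax
          (hD.line hx ha₁ ha haa₁.symm (haa₁.eq ▸ hl₁) h').symm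
        refine ⟨a * a₁, hl₁, hc1, by rwa [hD.mul_self_mul ha], ?_⟩
        refine hD.uniq hx ha₁ hl₁ he1 (hea.symm.mul_right he1)
          (haa₁.symm.mul_right (Commute.refl a₁)) ?_ hx1 h
        rwa [← mul_assoc, ← haa₁.eq, mul_assoc, hD.sq a₁ ha₁, mul_one]
      · exact ⟨a₁, ha₁, haa₁, hl₁, h⟩
    have hea' : Commute e a' := hD.line heD ha ha' haa' hl' hea.symm
    have hda' : Commute d a' := hD.line hd ha ha' haa' hl' hda
    have hba' : Commute b a' := hD.line hb ha ha' haa' hl' hab.symm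
    have hz₁a' : Commute z₁ a' := hD.line hz₁ ha ha' haa' hl' hz₁a
    have hxa' : ¬ Commute x a' := fun h => hax
      (hD.line hx ha' ha haa'.symm (haa'.eq ▸ hl') h).symm
    obtain ⟨k, -, hz₂, hz₂e, hz₂a', hxz₂, hxw⟩ := hD.dich hx heD ha' hea' hn'
    set w := (x * (e * a')) ^ k with hw
    set z₂ := w * (e * a') with hz₂def
    have hwz : w = z₂ * (e * a') := by
      rw [hz₂def, mul_assoc, hD.pair_sq heD ha' hea', mul_one]
    have hz₂a : Commute z₂ a := hD.line hz₂ ha' ha haa'.symm (haa'.eq ▸ hl') hz₂a'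
    have hwa : Commute w a := by
      rw [hwz]; exact hz₂a.mul_left (hea.symm.mul_left haa'.symm)
    have hwe : Commute w e := by
      rw [hwz]; exact hz₂e.mul_left ((Commute.refl e).mul_left hea'.symm)
    have hbw : Commute b w := (hbx.mul_right (heb.symm.mul_right hba')).pow_right k
    have hbz₂ : Commute b z₂ := hbw.mul_right (heb.symm.mul_right hba')
    have hwc : Commute w c := by
      rw [hcz]; exact ((fixz w hxw.symm hwa hwe).mul_right hxw.symm).mul_right hbw.symm
    have hdea : Commute d (e * a') := hed.symm.mul_right hda'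
    have hdz₂ : Commute d z₂ := by
      by_contra hn
      have hconj : c * z₂ * c⁻¹ ∈ D := hD.conj z₂ hz₂ c
      have h1 : w = c * z₂ * c⁻¹ * (a * (c * a' * c⁻¹)) := by
        have h2 : c * w * c⁻¹ = w := by rw [← hwc.eq, mul_inv_cancel_right]
        have h3 : c * e * c⁻¹ = a := by
          rw [hedef, hci, mul_assoc c a c, ← mul_assoc c c, hcc, one_mul, mul_assoc, hcc, mul_one]
        conv_lhs => rw [← h2, hwz]
        rw [← h3]; group
      have h4 : Commute d (a * (c * a' * c⁻¹)) := by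
        refine hda.mul_right ?_
        have h5 := (Commute.conj_iff c).2 hda'
        rwa [show c * d * c⁻¹ = d by rw [← hdc.eq, mul_inv_cancel_right]] at h5
      have h6 : Commute d (z₂ * (c * z₂ * c⁻¹)) := by
        have ha2 : z₂ * d * z₂⁻¹ = w * d * w⁻¹ := by
          rw [hwz, mul_assoc z₂ (e * a') d, ← hdea.eq, mul_inv_rev z₂ (e * a')]
          group
        have hb2 : c * z₂ * c⁻¹ * d * (c * z₂ * c⁻¹)⁻¹ = w * d * w⁻¹ := by
          rw [h1, mul_assoc (c * z₂ * c⁻¹) (a * (c * a' * c⁻¹)) d, ← h4.eq,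
            mul_inv_rev (c * z₂ * c⁻¹) (a * (c * a' * c⁻¹))]
          group
        have h7 := ha2.trans hb2.symm
        have h8 := congrArg (fun u => z₂⁻¹ * u * (c * z₂ * c⁻¹)) h7
        simp only [mul_assoc, inv_mul_cancel, inv_mul_cancel_left, mul_one] at h8
        rw [hD.inv hz₂] at h8
        show d * (z₂ * (c * z₂ * c⁻¹)) = z₂ * (c * z₂ * c⁻¹) * d
        simpa only [mul_assoc] using h8
      have h9 : Commute c z₂ :=
        mul_inv_eq_iff_eq_mul.1 (hD.inj hd hz₂ hconj hn h6).symm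
      exact hxz₂ (hD.both hz₂ hx hb hz hzne hbz₂.symm (hcz ▸ h9.symm)).symm
    have hdw : Commute d w := by rw [hwz]; exact hdz₂.mul_right hdea
    have hwt : Commute w t := (hxw.symm.mul_right (hwa.mul_right hdw.symm)).pow_right n
    have hwz₁ : Commute w z₁ := hwt.mul_right (hwa.mul_right hdw.symm)
    have h1 : Commute z₁ (e * z₂) := by
      have h2 := hwz₁.symm.mul_right hz₁a'
      have h4 : w * a' = e * z₂ := by
        rw [← hz₂e.eq, hz₂def, mul_assoc w, mul_assoc e, ← hea'.eq, ← mul_assoc e e,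
          hD.sq e heD, one_mul]
      rwa [h4] at h2
    have h3 := hD.inj hz₁ heD hz₂ (fun h => hez h.symm) h1
    refine hxa' ?_
    rwa [hwz, ← h3, hD.mul_self_mul heD] at hxw

/-- There is no shortest path of length three. -/
theorem no_config (hD : OT D) {d a b x a₁ b₁ : G} (hd : d ∈ D) (ha : a ∈ D) (hb : b ∈ D)
    (hx : x ∈ D) (ha₁ : a₁ ∈ D) (hb₁ : b₁ ∈ D) (hda : Commute d a) (hab : Commute a b)
    (hbx : Commute b x) (haa₁ : Commute a a₁) (hl₁ : a * a₁ ∈ D) (hbb₁ : Commute b b₁)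
    (hm₁ : b * b₁ ∈ D) : ∃ g ∈ D, Commute g d ∧ Commute g x := by
  by_contra hne
  have hbad : ∀ g ∈ D, Commute g d → ¬ Commute g x := fun g hg h1 h2 => hne ⟨g, hg, h1, h2⟩
  have hdb : ¬ Commute d b := fun h => hbad b hb h.symm hbx
  have hxa : ¬ Commute x a := fun h => hbad a ha hda.symm h.symm
  obtain ⟨b', hb', hab', hb'x, hnb⟩ : ∃ b' ∈ D, Commute a b' ∧ Commute b' x ∧
      ¬ Commute d (x * b' * d * (x * b')⁻¹) := by
    by_cases h : Commute d (x * b * d * (x * b)⁻¹)
    · have hxb₁ : Commute x b₁ := hD.line hx hb hb₁ hbb₁ hm₁ hbx.symm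
      exact ⟨b₁, hb₁, hD.line ha hb hb₁ hbb₁ hm₁ hab, hxb₁.symm,
        hD.uniq hd hb hb₁ hbx.symm hxb₁ hbb₁ hm₁ hdb h⟩
    · exact ⟨b, hb, hab, hbx, h⟩
  obtain ⟨a', ha', a'', ha'', hda', ha'b, hl, hm, hna⟩ : ∃ a' ∈ D, ∃ a'' ∈ D, Commute d a' ∧
      Commute a' b' ∧ Commute a' a'' ∧ a' * a'' ∈ D ∧
      ¬ Commute x (a' * d * x * (a' * d)⁻¹) := by
    by_cases h : Commute x (a * d * x * (a * d)⁻¹)
    · have hd₁ : Commute d a₁ := hD.line hd ha ha₁ haa₁ hl₁ hda
      refine ⟨a₁, ha₁, a, ha, hd₁, (hD.line hb' ha ha₁ haa₁ hl₁ hab'.symm).symm, haa₁.symm,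
        haa₁.eq ▸ hl₁, ?_⟩
      rw [← hd₁.eq]
      exact hD.uniq hx ha ha₁ hda hd₁ haa₁ hl₁ hxa (by rwa [hda.eq])
    · exact ⟨a, ha, a₁, ha₁, hda, hab', haa₁, hl₁, h⟩
  exact core hD hd ha' hb' hx ha'' hda' ha'b hb'x hbad hl hm hnb hna

end Cfsg.Agent.OddTranspDiam
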